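import Mathlib

/-! # Standard subgroups `Sp₆(2)`, `Ω₈⁺(2)`: the facts on the simple group (helper15, `docs/NC.md`) -/

set_option autoImplicit false

namespace Cfsg.Lib.NC

open Subgroup
open MulAut (conj)

variable {J : Type*} [Group J]

/-- `M ≤ Aut J` has order divisible by 4 and is normalised by `Y ≤ J`, which contains the centralisers of the involutions of `M` -/
structure TE (M : Subgroup (MulAut J)) (Y : Subgroup J) : Prop where
  nm : ∀ y ∈ Y, ∀ m ∈ M, conj y * m * (conj y)⁻¹ ∈ M
  cen : ∀ m ∈ M, m * m = 1 → m ≠ 1 → ∀ c, m c = c → c ∈ Y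
  four : 4 ∣ Nat.card M

/-- the exceptional configuration (a four-group of involutions of type `c₂` of `Sp₆(2)`) -/
structure Exc (M : Subgroup (MulAut J)) (Y : Subgroup J) : Prop where
  inn : ∀ α : MulAut J, ∃ a, α = conj a
  nine : ∃ E ≤ Y, Nat.card E = 9 ∧ ∀ e ∈ E, conj e ∈ M → e = 1
  cen : ¬ 9 ∣ Nat.card (centralizer (M : Set (MulAut J)))

/-- the facts -/
structure Fx (J : Type*) [Group J] : Prop where
  simple : IsSimpleGroup J
  zen : ∀ a : J, (∀ b, a * b = b * a) → a = 1
  inv : ∃ x : J, x * x = 1 ∧ x ≠ 1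
  te : ∀ (M : Subgroup (MulAut J)) (Y : Subgroup J), TE M Y → Y = ⊤ ∨ Exc M Y
  out : ∀ u : MulAut J, u * u = 1 → (∃ a, u = conj a) ∨ ∃ a b l : J, u a = a ∧ u b = b ∧ a ^ 21 = 1 ∧ b ^ 21 = 1 ∧
    a * b * (a * b) = 1 ∧ a * b ≠ 1 ∧ l * (u l)⁻¹ = a * b
  odd : ∀ α β : MulAut J, α ^ 21 = 1 → β ^ 21 = 1 → α * β * (α * β) = 1 → ∃ a, α * β = conj a

theorem congr_conj {J' : Type*} [Group J'] (e : J ≃* J') (a : J) : MulAut.congr e (conj a) = conj (e a) :=
  MulEquiv.ext fun b => by simp

theorem Fx.map {J' : Type*} [Group J'] (F : Fx J) (e : J ≃* J') : Fx J' := by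
  let c := MulAut.congr e
  have k : ∀ a, c (conj a) = conj (e a) := congr_conj e
  have ap : ∀ α a, c α (e a) = e (α a) := fun α a => by simp [c]
  refine ⟨have := F.simple; e.symm.isSimpleGroup, e.surjective.forall.2 fun a h => by
    rw [F.zen a fun b => e.injective (by rw [map_mul, map_mul, h]), map_one], let ⟨x, a, b⟩ := F.inv;
    ⟨e x, by rw [← map_mul, a, map_one], fun z => b ((map_eq_one_iff _ e.injective).1 z)⟩, fun M Y T => ?_,
    c.surjective.forall.2 fun u h => ?_, c.surjective.forall.2 fun α => c.surjective.forall.2 fun β a b h => ?_⟩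
  · have cm : ∀ N : Subgroup (MulAut J'), Nat.card (N.comap c.toMonoidHom) = Nat.card N := fun N =>
      Nat.card_congr (c.toEquiv.subtypeEquiv fun _ => Iff.rfl)
    refine (F.te (M.comap c.toMonoidHom) (Y.comap e.toMonoidHom) ⟨fun y a m b => ?_, fun m a b d x f => ?_, cm M ▸ T.four⟩).imp
      (fun h => (eq_top_iff' _).2 (e.surjective.forall.2 fun a => h.ge (mem_top a))) fun ⟨p, ⟨E, q, r, s⟩, t⟩ =>
        ⟨c.surjective.forall.2 fun α => let ⟨a, h⟩ := p α; ⟨e a, by rw [h, k]⟩, ⟨E.map e.toMonoidHom, map_le_iff_le_comap.2 q,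
          (card_map_of_injective e.injective).trans r, ?_⟩, ?_⟩
    · simpa [k] using T.nm _ a _ b
    · exact T.cen _ a (by simpa using congrArg c b) (by simpa using d) (e x) ((ap m x).trans (congrArg e f))
    · rintro _ ⟨x, a, rfl⟩ h
      rw [s x a (show c (conj x) ∈ M from k x ▸ h), map_one]
    · rwa [← cm, show (centralizer (M : Set (MulAut J'))).comap c.toMonoidHom = centralizer (M.comap c.toMonoidHom : Set (MulAut J)) from
        Subgroup.ext fun α => ⟨fun h β m => c.injective (by rw [map_mul, map_mul]; exact h _ m),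
          fun h => c.surjective.forall.2 fun β m => by simpa using congrArg c (h β m)⟩]
  · refine (F.out u (c.injective (by simpa using h))).imp (fun ⟨a, h⟩ => ⟨e a, by rw [h, k]⟩)
      fun ⟨a, b, l, h1, h2, h3, h4, h5, h6, h7⟩ => ⟨e a, e b, e l, by rw [ap, h1], by rw [ap, h2], by rw [← map_pow, h3, map_one],
        by rw [← map_pow, h4, map_one], by rw [← map_mul, ← map_mul, h5, map_one],
        by rw [← map_mul]; exact fun z => h6 ((map_eq_one_iff _ e.injective).1 z), by rw [ap, ← map_inv, ← map_mul, h7, map_mul]⟩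
  · obtain ⟨x, h⟩ := F.odd α β (c.injective (by simpa using a)) (c.injective (by simpa using b)) (c.injective (by simpa using h))
    exact ⟨e x, by rw [← map_mul, h, k]⟩

/-- in a group of order divisible by 4 the centraliser of an element of order at most 2 has order divisible by 4 -/
theorem four_cen {G : Type*} [Group G] [Finite G] {K : Subgroup G} (h : 4 ∣ Nat.card K) {k : G} (m : k ∈ K) (e : k * k = 1) :
    4 ∣ Nat.card ↥(K ⊓ centralizer {k}) := by
  have := Fact.mk Nat.prime_two
  let x : K := ⟨k, m⟩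
  have x2 : x ^ 2 = 1 := Subtype.ext (by simpa [sq] using e)
  have c : Nat.card ↥(K ⊓ centralizer {k}) = Nat.card (centralizer ({x} : Set K)) := by
    rw [← Nat.card_congr ((centralizer ({x} : Set K)).equivMapOfInjective _ K.subtype_injective).symm.toEquiv]
    congr 2
    ext y
    exact ⟨fun ⟨a, b⟩ => ⟨⟨y, a⟩, mem_centralizer_singleton_iff.2 (Subtype.ext (mem_centralizer_singleton_iff.1 b)), rfl⟩,
      fun ⟨z, a, b⟩ => b ▸ ⟨z.2, mem_centralizer_singleton_iff.2 (congrArg Subtype.val (mem_centralizer_singleton_iff.1 a))⟩⟩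
  rw [c]
  obtain ⟨P, hP⟩ := (IsPGroup.of_card_dvd_pow (p := 2) (n := 1) (G := zpowers x) (by
    rw [Nat.card_zpowers]; exact orderOf_dvd_of_pow_eq_one x2)).exists_le_sylow
  have p4 : 4 ∣ Nat.card P := by
    rw [Sylow.card_eq_multiplicity]
    exact pow_dvd_pow 2 ((Nat.prime_two.pow_dvd_iff_le_factorization Nat.card_pos.ne').1 (show 2 ^ 2 ∣ _ from h))
  have nt : Nontrivial P := Finite.one_lt_card_iff_nontrivial.1 (lt_of_lt_of_le (by decide) (Nat.le_of_dvd Nat.card_pos p4))
  let y : P := ⟨x, hP (mem_zpowers x)⟩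
  have d : Nat.card (centralizer ({y} : Set P)) ∣ Nat.card (centralizer ({x} : Set K)) := by
    rw [Nat.card_congr ((centralizer ({y} : Set P)).equivMapOfInjective _ (P : Subgroup K).subtype_injective).toEquiv]
    refine card_dvd_of_le ?_
    rintro _ ⟨z, a, rfl⟩
    exact mem_centralizer_singleton_iff.2 (congrArg Subtype.val (mem_centralizer_singleton_iff.1 a))
  refine Dvd.dvd.trans ?_ d
  by_cases z : y ∈ center P
  · rwa [(eq_top_iff' _).2 fun a => mem_centralizer_singleton_iff.2 (mem_center_iff.1 z a), card_top]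
  obtain ⟨n, hn⟩ := IsPGroup.iff_card.1 (P.2.to_subgroup (centralizer ({y} : Set P)))
  obtain ⟨⟨w, wc⟩, w1⟩ := @exists_ne _ P.2.center_nontrivial 1
  rw [hn]
  refine pow_dvd_pow 2 (show 2 ≤ n from by_contra fun l => ?_)
  have l2 : Nat.card (centralizer ({y} : Set P)) ≤ 2 := hn ▸ (Nat.pow_le_pow_right (by decide) (show n ≤ 1 by omega))
  have : Fintype (centralizer ({y} : Set P)) := Fintype.ofFinite _
  rw [Nat.card_eq_fintype_card] at l2
  refine absurd ((Fintype.two_lt_card_iff (α := centralizer ({y} : Set P))).2 ⟨1, ⟨y, mem_centralizer_singleton_iff.2 rfl⟩,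
    ⟨w, mem_centralizer_singleton_iff.2 (mem_center_iff.1 wc y).symm⟩, fun e => z ?_, fun e => w1 (Subtype.ext ?_), fun e => z ?_⟩) (by omega)
  · rw [← show (1 : P) = y from congrArg Subtype.val e]; exact one_mem _
  · exact (congrArg Subtype.val e).symm
  · rw [show y = w from congrArg Subtype.val e]; exact wc

end Cfsg.Lib.NC
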