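import Cfsg.Agent.Lib.NC.Fix
import Cfsg.Agent.Lib.T3.Net
import Cfsg.Agent.Lib.T2.Gen

/-! # Kernel searches for the facts `Fx` (helper10) -/

set_option autoImplicit false

namespace Cfsg.Lib.NC

open Subgroup Cfsg.Lib.Calc Cfsg.Lib.T2
open MulAut (conj)

variable {G : Type*} [Group G] {J M Y : Subgroup G}

/-- `TE` inside a group `G` acting on `J` by conjugation -/
structure TX (J M Y : Subgroup G) : Prop where
  nm : ∀ y ∈ Y, ∀ m ∈ M, y * m * y⁻¹ ∈ M
  cen : ∀ m ∈ M, m * m = 1 → m ≠ 1 → ∀ c ∈ J, c * m = m * c → c ∈ Y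
  four : 4 ∣ Nat.card M

theorem TX.cj [n : J.Normal] (T : TX J M Y) (g : G) : TX J (M.comap (conj g).toMonoidHom) (Y.comap (conj g).toMonoidHom) :=
  ⟨fun y a m b => by simpa [mem_comap, mul_assoc] using T.nm _ a _ b, fun m a b d c e f => T.cen _ a (by simpa using congrArg (conj g) b)
    (by simpa using d) _ (n.conj_mem c e g) (by simpa using congrArg (conj g) f),
    T.four.trans (Nat.card_congr ((conj g).toEquiv.subtypeEquiv fun _ => Iff.rfl) : Nat.card (M.comap (conj g).toMonoidHom) = _).symm.dvd⟩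

theorem TX.inv [Finite G] (T : TX J M Y) : ∃ m ∈ M, m * m = 1 ∧ m ≠ 1 :=
  have := Fact.mk Nat.prime_two
  let ⟨x, e⟩ := exists_prime_orderOf_dvd_card' (G := M) 2 (Dvd.dvd.trans (by decide) T.four)
  ⟨x, x.2, congrArg Subtype.val ((sq x).symm.trans (e ▸ pow_orderOf_eq_one x)), fun z => by
    rw [show x = 1 from Subtype.ext z, orderOf_one] at e; omega⟩

theorem TE.tx {J : Type*} [Group J] {M : Subgroup (MulAut J)} {Y : Subgroup J} (T : TE M Y) {ι : G →* MulAut J} {κ : J →* G}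
    (hι : Function.Injective ι) (hκ : Function.Injective κ) (h : ∀ g j, κ (ι g j) = g * κ j * g⁻¹) (f : 4 ∣ Nat.card (M.comap ι)) :
    TX κ.range (M.comap ι) (Y.map κ) := by
  refine ⟨?_, fun m a b d => ?_, f⟩
  · rintro _ ⟨y, a, rfl⟩ m b
    rw [mem_comap, map_mul, map_mul, map_inv, show ι (κ y) = conj y from MulEquiv.ext fun j => hκ (by simp [h])]
    exact T.nm y a _ b
  · rintro _ ⟨c, rfl⟩ e
    exact ⟨c, T.cen _ a (by rw [← map_mul, b, map_one]) (mt (map_eq_one_iff _ hι).1 d) c (hκ (by rw [h, ← e, mul_inv_cancel_right])), rfl⟩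

/-- a conjugate of `r` in `M` forces `J ≤ Y` -/
def Bad (J : Subgroup G) (r : G) : Prop := ∀ M Y, TX J M Y → ∀ g, g * r * g⁻¹ ∈ M → J ≤ Y

theorem Bad.of [n : J.Normal] {r : G} (h : ∀ M Y, TX J M Y → r ∈ M → J ≤ Y) : Bad J r := fun _ _ T g a x b => by
  simpa [mem_comap, mul_assoc] using h _ _ (T.cj g) a (n.conj_mem' x b g)

/-- decision trees whose leaves read `x = c * γ k * c⁻¹` -/
inductive DT
  | nil
  | leaf (x c : W) (k : ℕ) (r : DT)
  | node (s : Fm) (a b : DT)

/-- the formula of a tree -/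
noncomputable def DT.fm (t : DT) : Fm :=
  DT.rec (.not .tt) (fun x c k _ r => .or (.eq (.mul x c) (.mul c (.l k))) r) (fun s _ _ a b => .or (.and s a) b) t

/-- all leaves pass -/
noncomputable def DT.all (p : W → W → ℕ → Bool) (t : DT) : Bool :=
  DT.rec true (fun x c k _ r => band (p x c k) r) (fun _ _ _ a b => band a b) t

theorem DT.spec {K : ℕ → Subgroup G} {δ : ℕ → G} {p : W → W → ℕ → Bool} {t : DT} (h : t.fm.holds K δ) (e : t.all p = true) :
    ∃ x c k, p x c k = true ∧ c.ev δ * δ k * (c.ev δ)⁻¹ = x.ev δ := by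
  induction t with
  | nil => exact (h trivial).elim
  | leaf x c k _ ih => exact Or.elim h (fun h => ⟨x, c, k, (band_eq_true.1 e).1, (eq_mul_inv_of_mul_eq h).symm⟩) fun h => ih h (band_eq_true.1 e).2
  | node s _ _ ih ih' => exact Or.elim h (fun h => ih h.2 (band_eq_true.1 e).1) fun h => ih' h (band_eq_true.1 e).2

/-- a word from its letters -/
def wl (l : List ℕ) : W := l.foldr (fun a t => .mul (.l a) t) (.l 0)

/-- conjunction -/
def andF (l : List W) (f : W → Fm) : Fm := l.foldr (fun t φ => .and (f t) φ) .tt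

theorem andF_iff {K : ℕ → Subgroup G} {δ : ℕ → G} {l : List W} {f : W → Fm} : (andF l f).holds K δ ↔ ∀ t ∈ l, (f t).holds K δ := by
  induction l with
  | nil => exact iff_of_true trivial fun _ h => nomatch h
  | cons a l ih => rw [List.forall_mem_cons]; exact and_congr_right' ih

/-- words in the normal closure of the letters `99` and `m` under words in `cs` -/
def nc (m : ℕ) (cs : List W) : W → Bool
  | .l c => c == 99 || c == m
  | .mul (.mul c x) (.inv d) => c.beq d && c.overW cs && nc m cs x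
  | .mul a b => nc m cs a && nc m cs b
  | .pow a _ => nc m cs a
  | .inv a => nc m cs a

theorem mem_of_nc {δ : ℕ → G} {m : ℕ} {cs : List W} (T : TX J M Y) (h0 : δ 0 = 1) (h1 : δ 99 ∈ M) (h2 : δ m ∈ M)
    (h : ∀ c ∈ cs, c.ev δ ∈ Y) {t : W} (e : nc m cs t = true) : t.ev δ ∈ M := by
  fun_induction nc m cs t with
  | case1 c => rcases Bool.or_eq_true_iff.1 e with e | e <;> rw [beq_iff_eq.1 e] <;> assumption
  | case2 c x d ih =>
    simp only [Bool.and_eq_true] at e
    rw [← W.eq_of_beq e.1.1]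
    exact T.nm _ (W.ev_mem_of_overW h0 h e.1.2) _ (ih e.2)
  | case3 a b _ ih ih' => exact mul_mem (ih (Bool.and_eq_true_iff.1 e).1) (ih' (Bool.and_eq_true_iff.1 e).2)
  | case4 a _ ih => exact pow_mem (ih e) _
  | case5 a ih => exact inv_mem (ih e)

/-- the leaves are elements of `M`, conjugate to a letter of `R` or equal to a letter of `R'` -/
noncomputable def lvK (m : ℕ) (cs : List W) (R R' : List ℕ) (t : DT) : Bool :=
  band (cs.all (avoid 99) && !(m :: R ++ R').contains 99) (t.all fun x c k => nc m cs x && (R.contains k || R'.contains k && c.beq (.l 0)))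

/-- the outcome -/
def Out (γ : ℕ → G) (M : Subgroup G) (R R' : List ℕ) : Prop := (∃ k ∈ R, ∃ g, g * γ k * g⁻¹ ∈ M) ∨ ∃ k ∈ R', γ k ∈ M

theorem out_of {K : ℕ → Subgroup G} {γ : ℕ → G} {m : ℕ} {cs : List W} {R R' : List ℕ} {t : DT} (e : lvK m cs R R' t = true)
    (T : TX J M Y) (h0 : γ 0 = 1) {y : G} (h1 : y ∈ M) (h2 : γ m ∈ M) (h : ∀ c ∈ cs, c.ev γ ∈ Y) (f : t.fm.holds K (upd γ 99 y)) :
    Out γ M R R' := by
  simp only [lvK, band_eq_true, Bool.and_eq_true, List.all_eq_true, Bool.not_eq_true', List.contains_eq_mem, decide_eq_false_iff_not,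
    List.cons_append, List.mem_cons, List.mem_append, not_or] at e
  obtain ⟨⟨a, b, c, d⟩, e⟩ := e
  obtain ⟨x, u, k, p, q⟩ := DT.spec f e
  simp only [Bool.and_eq_true, Bool.or_eq_true, decide_eq_true_eq] at p
  have z : upd γ 99 y 0 = 1 := h0
  have := q ▸ mem_of_nc T z ((upd_self γ 99 y).symm ▸ h1) ((upd_of_ne γ y (Ne.symm b)).symm ▸ h2)
    (fun c k => by rw [ev_upd (a c k)]; exact h c k) p.1
  refine p.2.imp (fun r => ⟨k, r, _, upd_of_ne γ y (fun e : k = 99 => c (e ▸ r)) ▸ this⟩) fun r => ⟨k, r.1, ?_⟩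
  rwa [W.eq_of_beq r.2, ev_l, z, one_mul, inv_one, mul_one, upd_of_ne γ y fun e : k = 99 => d (e ▸ r.1)] at this

/-- the letter `a` is an involution -/
def invF (a : ℕ) : Fm := .and (.one (.mul (.l a) (.l a))) (.not (.one (.l a)))

/-- `u` commutes with the letter `a` -/
def cmF (a : ℕ) (u : W) : Fm := .eq (.mul u (.l a)) (.mul (.l a) u)

/-- the search of `Md.step` -/
noncomputable def stF (j s m : ℕ) (ts cs ss : List W) (t : DT) : Fm :=
  .and (.and (invF m) (.and (andF (ts ++ cs) fun c => .and (.mem j c) (cmF m c)) (andF ts (.mem s))))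
    (.all 0 99 ((.l m, .l m) :: ss.map fun s => (.mul s s, .mul s s))
      (.imp (.or (.one (.mul (.l 99) (.l 99))) (.eq (.mul (.l 99) (.l 99)) (.l m))) (.imp (.not (.one (.l 99))) (.imp (.not (.eq (.l 99) (.l m)))
        (.imp (andF ts fun u => .or (cmF 99 u) (.eq (.mul u (.l 99)) (.mul (.mul (.l 99) (.l m)) u))) t.fm)))))

/-- the letters `γ` generate `G` and satisfy the relations of the model -/
structure Md (P : PM) [NeZero P.n] (γ : ℕ → G) : Prop where
  ok : P.OK
  iso : IsoW P.gam γ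
  top : genW γ (P.ws 0) = ⊤

variable {P : PM} [NeZero P.n] {γ : ℕ → G}

theorem Md.of_equiv (ok : P.OK) (e : P.K 0 ≃* G) : ∃ γ : ℕ → G, Md P γ := by
  let δ : ℕ → P.K 0 := fun c => ⟨_, ok.mem c⟩
  have i : IsoW P.gam fun c => e (δ c) := (IsoW.of_hom (P.K 0).subtype (subtype_injective _) δ).symm.trans (.of_hom e.toMonoidHom e.injective δ)
  have := Finite.of_equiv _ e.toEquiv
  exact ⟨_, ok, i, eq_top_of_card_eq _ ((i.card_eq _).symm.trans (Nat.card_congr e.toEquiv))⟩

namespace Md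

variable (D : Md P γ)
include D

theorem holds {φ : Fm} (e : P.eval φ = true) : φ.holds (fun k => genW γ (P.ws k)) γ := D.ok.transfer D.iso e

theorem card (k : ℕ) : Nat.card (genW γ (P.ws k)) = Mathieu.chSize (P.Ls k) := (D.iso.card_eq _).symm.trans (D.ok.card k)

theorem zero : γ 0 = 1 := (D.iso (.l 0)).1 D.ok.zero

theorem mem (g : G) : g ∈ genW γ (P.ws 0) := D.top ▸ mem_top g

theorem fin : Finite G := Nat.finite_of_card_ne_zero (by
  rw [← card_top, ← D.top, ← D.iso.card_eq]; exact Nat.card_pos.ne')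

/-- elements of `J` commuting with one of two involutions of `M` -/
theorem gen (j a b : ℕ) (us : List W) (T : TX (genW γ (P.ws j)) M Y) (ha : γ a ∈ M) (hb : γ b ∈ M)
    (e : P.eval (.and (.and (invF a) (invF b)) (andF us fun u => .and (.mem j u) (.or (cmF a u) (cmF b u)))) = true := by decide +kernel) :
    genW γ us ≤ Y :=
  let ⟨⟨p, q⟩, r⟩ := D.holds e
  genW_le.2 fun u h => let ⟨s, t⟩ := andF_iff.1 r u h; t.elim (T.cen _ ha p.1 p.2 _ s) (T.cen _ hb q.1 q.2 _ s)

/-- the classes of involutions -/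
theorem cls (s : ℕ) (R : List ℕ) (t : DT) (e : band (band (Nat.beq (Mathieu.chSize (P.Ls 0) / Mathieu.chSize (P.Ls s) % 2) 1 && !R.contains 99)
      (t.all fun x _ k => x.beq (.l 99) && R.contains k))
      (P.eval (.all s 99 [] (.imp (.one (.mul (.l 99) (.l 99))) (.or (.one (.l 99)) t.fm)))) = true)
    {x : G} (a : x * x = 1) (b : x ≠ 1) : ∃ k ∈ R, ∃ g, g * γ k * g⁻¹ = x := by
  simp only [band_eq_true, Bool.and_eq_true, beq_iff, Bool.not_eq_true', List.contains_eq_mem, decide_eq_false_iff_not] at e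
  have := D.fin
  have o := (genW γ (P.ws s)).index_mul_card
  rw [← card_top (G := G), ← D.top, D.card, D.card] at o
  obtain ⟨g, -, c⟩ := exists_conj_mem_of_odd (H := genW γ (P.ws s)) (K := ⊤) (by
    rw [← o, Nat.mul_div_cancel _ (D.card s ▸ Nat.card_pos)] at e; rw [relIndex_top_right]; omega) (mem_top x) a
  obtain ⟨y, u, k, p, q⟩ := DT.spec ((D.holds e.2 _ c (show g * x * g⁻¹ * (g * x * g⁻¹) = 1 by
    rw [conj_mul, a, mul_one, mul_inv_cancel])).resolve_left (mt conj_eq_one_iff.1 b)) e.1.2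
  simp only [Bool.and_eq_true, decide_eq_true_eq] at p
  rw [W.eq_of_beq p.1, ev_l, upd_self, upd_of_ne γ _ fun z : k = 99 => e.1.1.2 (z ▸ p.2)] at q
  exact ⟨k, p.2, g⁻¹ * _, by rw [mul_inv_rev, mul_assoc, mul_assoc, ← mul_assoc _ _ g⁻¹⁻¹, ← mul_assoc _ (_ * _) g⁻¹⁻¹, ← mul_assoc _ (γ k), q]; group⟩

/-- a 2-subgroup `⟨ts⟩` of `C_J(γ m)` fixes a second element of `M` modulo `γ m` -/
theorem step (j s m : ℕ) (ts cs ss : List W) (R R' : List ℕ) (t : DT)
    (e : band (band (lvK m (ts ++ cs) R R' t) (ss.all (W.overW ts) && Nat.beq (2 ^ 20 % Mathieu.chSize (P.Ls s)) 0))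
      (P.eval (stF j s m ts cs ss t)) = true) (T : TX (genW γ (P.ws j)) M Y) (hm : γ m ∈ M) : Out γ M R R' := by
  simp only [band_eq_true, Bool.and_eq_true, beq_iff, List.all_eq_true] at e
  obtain ⟨⟨e1, e2, e3⟩, e⟩ := e
  have := D.fin
  obtain ⟨⟨⟨a, b⟩, c, d⟩, f⟩ := D.holds e
  change γ m * γ m = 1 at a
  have h : ∀ u ∈ ts ++ cs, u.ev γ ∈ Y ⊓ centralizer {γ m} := fun u k =>
    let ⟨p, q⟩ := andF_iff.1 c u k; ⟨T.cen _ hm a b _ p q, mem_centralizer_singleton_iff.2 q⟩
  have h' : genW γ ts ≤ Y ⊓ centralizer {γ m} := genW_le.2 fun u k => h u (List.mem_append_left _ k)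
  obtain ⟨y, y1, y2, y3, y4, y5, y6⟩ := exists_y hm a T.four ((IsPGroup.of_card_dvd_pow (n := 20)
    (D.card s ▸ Nat.dvd_of_mod_eq_zero e3)).to_le (genW_le.2 (andF_iff.1 d))) (fun u k => T.nm u (h' k).1)
    fun u k => mem_centralizer_singleton_iff.1 (h' k).2
  have v := e1
  simp only [lvK, band_eq_true, Bool.and_eq_true, List.all_eq_true, Bool.not_eq_true', List.contains_eq_mem, decide_eq_false_iff_not,
    List.cons_append, List.mem_cons, not_or] at v
  have z : upd γ 99 y m = γ m := upd_of_ne γ y (Ne.symm v.1.2.1)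
  refine out_of e1 T D.zero y1 hm (fun u k => (h u k).1) (imps_iff.1 (f y (D.mem y)) (List.forall_mem_cons.2 ⟨y2, List.forall_mem_map.2 fun u k => ?_⟩)
    (y5.imp id fun r => r.trans z.symm) y3 (fun r => y4 (r.trans z)) (andF_iff.2 fun u k => ?_))
  · have p := W.ev_mem_of_overW D.zero (fun _ => mem_genW γ) (e2 u k)
    have q := mem_centralizer_singleton_iff.1 (h' p).2
    change y * (u.ev γ * u.ev γ) = u.ev γ * u.ev γ * y
    rcases y6 _ p with r | r <;> rw [mul_inv_eq_iff_eq_mul] at r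
    · rw [mul_assoc, r, ← mul_assoc, ← mul_assoc, r]
    · rw [mul_assoc, r, ← mul_assoc, ← mul_assoc, ← mul_assoc, r, mul_assoc (y * _), q, ← mul_assoc, mul_assoc y (γ m), a, mul_one, mul_assoc]
  · change u.ev _ * y = y * u.ev _ ∨ u.ev _ * y = y * upd γ 99 y m * u.ev _
    rw [z, ev_upd (v.1.1 u (List.mem_append_left _ k))]
    exact (y6 _ (mem_genW γ k)).imp mul_inv_eq_iff_eq_mul.1 mul_inv_eq_iff_eq_mul.1

end Md

end Cfsg.Lib.NC
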