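import Cfsg.Agent.Lib.NC.Def
import Cfsg.Agent.Lib.PGroup.Basic

/-! # A 2-group fixes an involution modulo `⟨m⟩` (helper15) -/

set_option autoImplicit false

namespace Cfsg.Lib.NC

open Subgroup

theorem zp_two {G : Type*} [Group G] {r x : G} (e : r * r = 1) (m : x ∈ zpowers r) : x = 1 ∨ x = r := by
  obtain ⟨i, rfl⟩ := m
  obtain ⟨j, rfl | rfl⟩ := Int.even_or_odd' i <;> simp [zpow_add, zpow_mul, zpow_ofNat, sq, e]

theorem exists_y {G : Type*} [Group G] [Finite G] {M T : Subgroup G} {m : G} (hm : m ∈ M) (m2 : m * m = 1) (h4 : 4 ∣ Nat.card M)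
    (hT : IsPGroup 2 T) (n : ∀ t ∈ T, ∀ x ∈ M, t * x * t⁻¹ ∈ M) (c : ∀ t ∈ T, t * m = m * t) :
    ∃ y ∈ M, y * m = m * y ∧ y ≠ 1 ∧ y ≠ m ∧ (y * y = 1 ∨ y * y = m) ∧ ∀ t ∈ T, t * y * t⁻¹ = y ∨ t * y * t⁻¹ = y * m := by
  have := Fact.mk Nat.prime_two
  let H := centralizer {m} ⊓ normalizer (M : Set G)
  have mH : m ∈ H := ⟨mem_centralizer_singleton_iff.2 rfl, le_normalizer hm⟩
  let Z := zpowers (⟨m, mH⟩ : H)
  have zc : Z ≤ center H := zpowers_le.2 (mem_center_iff.2 fun g => Subtype.ext (mem_centralizer_singleton_iff.1 g.2.1))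
  have : Z.Normal := ⟨fun a h g => by rwa [mem_center_iff.1 (zc h) g, mul_inv_cancel_right]⟩
  have z2 : ∀ x : H, (x : H ⧸ Z) = 1 → x.1 = 1 ∨ x.1 = m := fun x h =>
    (zp_two (Subtype.ext m2) ((QuotientGroup.eq_one_iff x).1 h)).imp (congrArg Subtype.val) (congrArg Subtype.val)
  have nM : (M.subgroupOf H).Normal := ⟨fun a h g => (mem_normalizer_iff.1 g.2.2 a).1 h⟩
  let π := QuotientGroup.mk' Z
  have nN : ((M.subgroupOf H).map π).Normal := nM.map π (QuotientGroup.mk'_surjective Z)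
  have TH : T ≤ H := fun t h => ⟨mem_centralizer_singleton_iff.2 (c t h), mem_normalizer_iff.2 fun x =>
    ⟨n t h x, fun k => by simpa [mul_assoc] using n _ (inv_mem h) _ k⟩⟩
  obtain ⟨P, hP⟩ := ((hT.comap_of_injective H.subtype H.subtype_injective).map π).exists_le_sylow
  obtain ⟨R, hR⟩ := Sylow.exists_subgroup_card_pow_prime 2 (n := 2) (four_cen h4 hm m2)
  obtain ⟨y, y1, ym⟩ : ∃ y : R, y.1.1 ≠ 1 ∧ y.1.1 ≠ m := by
    by_contra! k
    have : Fintype R := Fintype.ofFinite _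
    obtain ⟨a, b, d, e, f, g⟩ := (Fintype.two_lt_card_iff (α := R)).1 (by rw [← Nat.card_eq_fintype_card, hR]; decide)
    have l : ∀ x : R, x.1.1 = 1 ∨ x.1.1 = m := fun x => (em _).imp_right (k x)
    have i : ∀ {x y : R}, x.1.1 = y.1.1 → x = y := fun h => Subtype.ext (Subtype.ext h)
    rcases l a with p | p <;> rcases l b with q | q <;> rcases l d with r | r
    all_goals first | exact e (i (p.trans q.symm)) | exact f (i (p.trans r.symm)) | exact g (i (q.trans r.symm))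
  let x : H := ⟨y.1.1, y.1.2.2, le_normalizer y.1.2.1⟩
  have x4 : x ^ 2 ^ 2 = 1 := Subtype.ext (congrArg (fun a : R => a.1.1) (hR ▸ pow_card_eq_one' (x := y)))
  obtain ⟨Q, hQ⟩ := (IsPGroup.of_card_dvd_pow (p := 2) (n := 2) (G := zpowers (π x)) (by
    rw [Nat.card_zpowers]; exact orderOf_dvd_of_pow_eq_one (by rw [← map_pow, x4, map_one]))).exists_le_sylow
  obtain ⟨g, rfl⟩ := MulAction.exists_smul_eq (H ⧸ Z) Q P
  obtain ⟨⟨w, wP⟩, wN, wc, wo⟩ := PGroup.exists_mem_center_orderOf_eq (g • Q).2 (((M.subgroupOf H).map π).subgroupOf _) fun e =>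
    (z2 x (conj_eq_one_iff.1 (congrArg Subtype.val (mem_bot.1 (e.le (show (⟨g * π x * g⁻¹, smul_mem_pointwise_smul _ (MulAut.conj g) _
      (hQ (mem_zpowers _))⟩ : (g • Q : Sylow 2 _)) ∈ _ from nN.conj_mem _ ⟨x, y.1.2.1, rfl⟩ g)))))).elim y1 ym
  obtain ⟨v, vM, rfl⟩ := wN
  have vm := mem_centralizer_singleton_iff.1 v.2.1
  have v1 : π v ≠ 1 := fun e => by rw [show (⟨π v, wP⟩ : (g • Q : Sylow 2 _)) = 1 from Subtype.ext e, orderOf_one] at wo; omega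
  refine ⟨v, vM, vm, fun e => v1 (by rw [show v = 1 from Subtype.ext e, map_one]),
    fun e => v1 ((QuotientGroup.eq_one_iff _).2 (by rw [show v = ⟨m, mH⟩ from Subtype.ext e]; exact mem_zpowers _)),
    z2 (v * v) (congrArg Subtype.val (show (⟨π v, wP⟩ * ⟨π v, wP⟩ : (g • Q : Sylow 2 _)) = 1 from (sq _).symm.trans (orderOf_dvd_iff_pow_eq_one.1 wo.dvd))),
    fun t h => ?_⟩
  have k := congrArg Subtype.val (mem_center_iff.1 wc ⟨π ⟨t, TH h⟩, hP ⟨_, h, rfl⟩⟩)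
  refine (z2 (v⁻¹ * (⟨t, TH h⟩ * v * ⟨t, TH h⟩⁻¹)) ?_).imp (fun e => (inv_mul_eq_one.1 e).symm) fun e => inv_mul_eq_iff_eq_mul.1 e
  change π _ = 1
  rw [map_mul, map_mul, map_mul, map_inv, map_inv, show π ⟨t, TH h⟩ * π v = π v * π ⟨t, TH h⟩ from k]; group

end Cfsg.Lib.NC
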