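import Cfsg.Agent.Lib.NC.Dsl

/-! # `Fx` for a simple subgroup of index 2 whose automorphism group has index 3 over the group (helper8) -/

set_option autoImplicit false

namespace Cfsg.Lib.NC

open Subgroup Cfsg.Lib.Calc Cfsg.Lib.T2
open MulAut (conj)

theorem cj_odd {A : Type*} [Group A] [Finite A] {H R : Subgroup A} (h : ¬ 2 ∣ H.index) (r : IsPGroup 2 R) :
    ∃ g, ∀ x ∈ R, g * x * g⁻¹ ∈ H := by
  have := Fact.mk Nat.prime_two
  obtain ⟨q, hq⟩ := r.nonempty_fixed_point_of_prime_not_dvd_card (A ⧸ H) h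
  obtain ⟨g, rfl⟩ := QuotientGroup.mk_surjective q
  exact ⟨g⁻¹, fun x a => by simpa [mul_assoc] using QuotientGroup.eq.1 (hq ⟨x, a⟩).symm⟩

theorem six_odd {A : Type*} [Group A] (h : Nat.card A = 6) {x y : A} (a : x ^ 21 = 1) (b : y ^ 21 = 1) (c : x * y * (x * y) = 1) :
    x * y = 1 := by
  have := Fact.mk Nat.prime_three
  have : Finite A := Nat.finite_of_card_ne_zero (by omega)
  obtain ⟨H, e⟩ := Sylow.exists_subgroup_card_pow_prime (G := A) 3 (n := 1) (h ▸ by decide)
  have i : H.index = 2 := by have := H.index_mul_card; rw [e, h] at this; omega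
  have m : ∀ {x : A}, x ^ 21 = 1 → x ∈ H := fun {x} a => by
    have := sq_mem_of_index_two i (x ^ 11)
    rwa [← pow_mul, show 11 * 2 = 21 + 1 from rfl, pow_succ, a, one_mul] at this
  have k : (x * y) ^ 3 = 1 := congrArg Subtype.val (e ▸ pow_card_eq_one' (x := (⟨_, mul_mem (m a) (m b)⟩ : H)))
  rwa [pow_succ, sq, c, one_mul] at k

theorem TE.cj {J : Type*} [Group J] {M : Subgroup (MulAut J)} {Y : Subgroup J} (T : TE M Y) (α : MulAut J) :
    TE (M.comap (conj α).toMonoidHom) (Y.comap α.toMonoidHom) :=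
  ⟨fun y a m b => by
      have := T.nm _ a _ b
      rw [show conj (α.toMonoidHom y) = α * conj y * α⁻¹ from MulEquiv.ext fun j => by simp] at this
      simpa [mem_comap, mul_assoc] using this,
    fun m a b d c e => T.cen _ a (by simpa using congrArg (conj α) b) (by simpa using d) _ (by simpa using e),
    T.four.trans (Nat.card_congr ((conj α).toEquiv.subtypeEquiv fun _ => Iff.rfl) : Nat.card (M.comap (conj α).toMonoidHom) = _).symm.dvd⟩

/-- the data of `Fx.out` for conjugation by `y` -/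
def OutD {G : Type*} [Group G] (J : Subgroup G) (y : G) : Prop :=
  y ∈ J ∨ ∃ a ∈ J, ∃ b ∈ J, ∃ l ∈ J, a * y = y * a ∧ b * y = y * b ∧ a ^ 21 = 1 ∧ b ^ 21 = 1 ∧ a * b * (a * b) = 1 ∧ a * b ≠ 1 ∧
    l * y = a * b * y * l

theorem fx_of {G : Type*} [Group G] [Finite G] {J : Subgroup G} [n : J.Normal] (s : IsSimpleGroup J) (hc : centralizer (J : Set G) = ⊥)
    (hi : J.index = 2) (ha : Nat.card (MulAut J) = 3 * Nat.card G) (inv : ∃ x ∈ J, x * x = 1 ∧ x ≠ 1) (te : ∀ M Y, TX J M Y → J ≤ Y)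
    (out : ∀ x : G, x * x = 1 → ∃ y g, g * y * g⁻¹ = x ∧ OutD J y) : Fx J := by
  have := Fact.mk Nat.prime_two
  let ι : G →* MulAut J := MulAut.conjNormal
  have hι : Function.Injective ι := (injective_iff_map_eq_one _).2 fun g k => mem_bot.1 (hc.le fun j a =>
    (mul_inv_eq_iff_eq_mul.1 (show g * j * g⁻¹ = j from congrArg Subtype.val (DFunLike.congr_fun k (⟨j, a⟩ : J)))).symm)
  have i3 : ¬ 2 ∣ ι.range.index := by
    have := ι.range.index_mul_card
    rw [ha, ← Nat.card_congr (MonoidHom.ofInjective hι).toEquiv] at this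
    rw [Nat.eq_of_mul_eq_mul_right Nat.card_pos this]; decide
  have z : ∀ a : J, (∀ b, a * b = b * a) → a = 1 := fun a k => Subtype.ext (mem_bot.1 (hc.le fun j m => congrArg Subtype.val (k ⟨j, m⟩).symm))
  have cc : ∀ (α : MulAut J) a, α * conj a * α⁻¹ = conj (α a) := fun α a => MulEquiv.ext fun j => by simp
  refine ⟨s, z, let ⟨x, a, b, c⟩ := inv; ⟨⟨x, a⟩, Subtype.ext b, fun e => c (congrArg Subtype.val e)⟩, fun M Y T => Or.inl ?_, fun u h => ?_,
    fun α β a b h => ?_⟩
  · obtain ⟨R, hR⟩ := Sylow.exists_subgroup_card_pow_prime (G := M) 2 (n := 2) T.four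
    obtain ⟨α, k⟩ := cj_odd i3 ((IsPGroup.of_card hR).map M.subtype)
    have T' := (T.cj α⁻¹).tx hι J.subtype_injective (fun _ _ => rfl) (by
      rw [← card_map_of_injective hι, map_comap_eq, show 4 = Nat.card R from hR.symm, ← card_map_of_injective M.subtype_injective,
        ← card_map_of_injective (f := (conj α).toMonoidHom) (conj α).injective]
      refine card_dvd_of_le ?_
      rintro _ ⟨x, m, rfl⟩
      exact ⟨k x m, by simpa [mem_comap, mul_assoc] using map_subtype_le _ m⟩)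
    rw [range_subtype] at T'
    refine (eq_top_iff' _).2 fun j => ?_
    obtain ⟨y, p, q⟩ := te _ _ T' (α j).2
    simpa [show y = α j from Subtype.ext q] using p
  · obtain ⟨α, k⟩ := cj_odd i3 (IsPGroup.of_card_dvd_pow (p := 2) (n := 1) (G := zpowers u) (by
      rw [Nat.card_zpowers]; exact orderOf_dvd_of_pow_eq_one ((sq u).trans h)))
    obtain ⟨x, e⟩ := k u (mem_zpowers u)
    obtain ⟨y, g, rfl, o⟩ := out x (hι (by rw [map_mul, e, conj_mul, h, mul_one, mul_inv_cancel, map_one]))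
    obtain ⟨β, f⟩ : ∃ β, u = β * ι y * β⁻¹ := ⟨α⁻¹ * ι g, by
      rw [map_mul, map_mul, map_inv] at e; rw [mul_inv_rev, mul_assoc, mul_assoc, ← mul_assoc (ι y), ← mul_assoc (ι g), ← mul_assoc (ι g), e]; group⟩
    have ap : ∀ j : J, u (β j) = β (ι y j) := fun j => by simp [f]
    refine o.imp (fun m => ⟨β ⟨y, m⟩, f.trans (by rw [← cc]; exact congrArg (β * · * β⁻¹) (MulAut.conjNormal_val (h := ⟨y, m⟩)))⟩) fun ⟨a, a1, b, b1, l, l1, h1, h2, h3, h4, h5, h6, h7⟩ =>
      ⟨β ⟨a, a1⟩, β ⟨b, b1⟩, β ⟨l, l1⟩, (ap _).trans (congrArg β (Subtype.ext (mul_inv_eq_iff_eq_mul.2 h1.symm))),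
        (ap _).trans (congrArg β (Subtype.ext (mul_inv_eq_iff_eq_mul.2 h2.symm))), ?_, ?_, ?_, ?_, ?_⟩
    · rw [← map_pow, map_eq_one_iff _ β.injective]; exact Subtype.ext h3
    · rw [← map_pow, map_eq_one_iff _ β.injective]; exact Subtype.ext h4
    · rw [← map_mul, ← map_mul, map_eq_one_iff _ β.injective]; exact Subtype.ext h5
    · rw [← map_mul, Ne, map_eq_one_iff _ β.injective]; exact fun e => h6 (congrArg Subtype.val e)
    · rw [ap, ← map_inv, ← map_mul, ← map_mul]
      refine congrArg β (Subtype.ext (show l * (y * l * y⁻¹)⁻¹ = a * b from ?_))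
      rw [mul_inv_rev, inv_inv, ← mul_assoc, h7]; group
  · have i : Function.Injective (conj : J →* _) := (injective_iff_map_eq_one _).2 fun a k => z a fun b =>
      mul_inv_eq_iff_eq_mul.1 (DFunLike.congr_fun k b)
    have : (conj : J →* _).range.Normal := ⟨by rintro _ ⟨a, rfl⟩ α; exact ⟨_, (cc α a).symm⟩⟩
    let π := QuotientGroup.mk' (conj : J →* _).range
    have c := (conj : J →* _).range.index_mul_card
    rw [ha, ← J.index_mul_card, hi, ← mul_assoc, ← Nat.card_congr (MonoidHom.ofInjective i).toEquiv] at c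
    obtain ⟨x, e⟩ := (QuotientGroup.eq_one_iff (α * β)).1 (six_odd (Nat.eq_of_mul_eq_mul_right Nat.card_pos c) (x := π α) (y := π β)
      (by rw [← map_pow, a, map_one]) (by rw [← map_pow, b, map_one]) (by rw [← map_mul, ← map_mul, h, map_one]))
    exact ⟨x, e.symm⟩

/-- the formula of `OutD` -/
def outF (j k : ℕ) (a b l : W) : Fm := .and (.mem j a) (.and (.mem j b) (.and (.mem j l) (.and (cmF k a) (.and (cmF k b) (.and (.one (.pow a 21))
  (.and (.one (.pow b 21)) (.and (.one (.mul (.mul a b) (.mul a b))) (.and (.not (.one (.mul a b)))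
    (.eq (.mul l (.l k)) (.mul (.mul (.mul a b) (.l k)) l))))))))))

theorem Md.outD {G : Type*} [Group G] {P : PM} [NeZero P.n] {γ : ℕ → G} (D : Md P γ) (j k : ℕ) (a b l : List ℕ)
    (e : P.eval (outF j k (wl a) (wl b) (wl l)) = true := by decide +kernel) : OutD (genW γ (P.ws j)) (γ k) :=
  let ⟨p, q, r, s⟩ := D.holds e
  Or.inr ⟨_, p, _, q, _, r, s⟩

end Cfsg.Lib.NC
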