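import Cfsg.Agent.Lib.NC.O8T
import Cfsg.Agent.Lib.NC.O8g
import Cfsg.Agent.Lib.Mult.Fam

/-! # The facts for `Ω₈⁺(2)` (statement helper15, `docs/NC.md`; proof helper8, helper10) -/

set_option autoImplicit false
set_option maxRecDepth 100000

namespace Cfsg.Lib.NC

open Cfsg.Lib.Calc Cfsg.Lib.T2 Subgroup

theorem O8.out {G : Type*} [Group G] {γ : ℕ → G} (D : Md N8 γ) (x : G) (a : x * x = 1) : ∃ y g, g * y * g⁻¹ = x ∧ OutD (commutator G) y := by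
  by_cases b : x = 1
  · exact ⟨1, 1, by simp [b], Or.inl (one_mem _)⟩
  obtain ⟨k, h, g, e⟩ := O8.cls D a b
  obtain ⟨p, q, r, s⟩ := D.holds (φ := .and (.mem 1 (.l 17)) (.and (.mem 1 (.l 20)) (.and (.mem 1 (.l 21)) (.mem 1 (.l 22))))) (by decide +kernel)
  refine ⟨_, g, e, O8.der D ▸ ?_⟩
  simp only [List.mem_cons, List.not_mem_nil, or_false] at h
  rcases h with rfl | rfl | rfl | rfl | rfl | rfl
  exacts [Or.inl p, D.outD 1 19 [27, 6, 7, 5, 6, 4, 5, 2, 4, 1, 3, 1, 3, 1, 4, 2, 5, 4, 6, 5, 7, 6, 8, 5, 6, 7, 4, 5, 6, 3, 4, 5, 2, 4, 3, 1, 3, 4, 2,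
    5, 4, 3, 6, 5, 4, 7, 6, 5, 8] [23, 5, 6, 7, 2, 4, 5, 6, 3, 4, 5, 2, 4, 3, 1, 3, 4, 2, 5, 4, 3, 6, 5, 4, 2, 7, 6, 5, 7, 6, 24] [6, 7, 5, 6, 4, 5, 2, 4],
    Or.inl q, Or.inl r, Or.inl s, D.outD 1 23 [26, 8, 19] [32, 8, 7] [6, 7, 5, 6, 4, 3, 2, 4]]

theorem fx_o8 {F : Type*} [Field F] [Fintype F] (hF : Fintype.card F = 2) : Fx (POmega F (quadFormPlus 4 F)) := by
  obtain ⟨e⟩ := N8_equiv
  obtain ⟨γ, D⟩ := Md.of_equiv N8_ok e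
  have := D.fin
  have hQ := Orth.nd_qPlus (F := ZMod 2) 4
  obtain ⟨f⟩ := Fi.omega_pomega hQ (by simp)
  obtain ⟨p, q⟩ := D.holds (φ := .and (.mem 1 (.l 17)) (invF 17)) (by decide +kernel)
  exact (fx_of F2.simple_omega_eight (Fi.centralizer_eq_bot_of_index F2.index_omega_eight (Fi.center_GO hQ (by simp))
    (Fi.center_Omega hQ (by simp))) F2.index_omega_eight (by rw [Fi.card_aut_omega8, Fi.card_GO8])
    ⟨γ 17, (O8.der D).le p, q⟩ (fun _ _ => O8.te D) (O8.out D)).map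
    (f.trans (Mult.pomegaCongr (ZMod.ringEquivOfPrime F Nat.prime_two hF) (by simp [quadFormPlus, Orth.qPlus_apply])))

end Cfsg.Lib.NC
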