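import Cfsg.Agent.Lib.NC.SpM
import Cfsg.Agent.S0814

/-! # The facts for `Sp₆(2)` (statement helper15, `docs/NC.md`; proof helper10)

Letters of the model `N6`: `12 = b₁`, `11 = a₂`, `13, 14, 18 = c₂`, `1 = b₃`. -/

set_option autoImplicit false

namespace Cfsg.Lib.NC

open Cfsg.Lib.Calc Cfsg.Lib.T2 Subgroup
open MulAut (conj)

namespace Sp

variable {G : Type*} [Group G] {γ : ℕ → G} {M Y : Subgroup G} (D : Md N6 γ)
include D

theorem nrm : (genW γ (N6.ws 0)).Normal := D.top ▸ inferInstance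

theorem bad_b : Bad (genW γ (N6.ws 0)) (γ 12) := @Bad.of _ _ _ (nrm D) _ fun _ _ T h =>
  (st_b D T h).elim (fun ⟨_, k, _⟩ => nomatch k) fun ⟨_, k, a⟩ => D.gen 0 12 11 _ T h (List.mem_singleton.1 k ▸ a)

theorem bad_a : Bad (genW γ (N6.ws 0)) (γ 11) := @Bad.of _ _ _ (nrm D) _ fun _ _ T h =>
  (st_a D T h).elim (fun ⟨_, k, g, a⟩ => bad_b D _ _ T g (List.mem_singleton.1 k ▸ a))
    fun ⟨_, k, a⟩ => D.gen 0 11 18 _ T h (List.mem_singleton.1 k ▸ a)

theorem bad (T : TX (genW γ (N6.ws 0)) M Y) {k : ℕ} (h : k ∈ [12, 11]) {g : G} (a : g * γ k * g⁻¹ ∈ M) : Y = ⊤ := by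
  rw [eq_top_iff, ← D.top]
  rcases List.mem_pair.1 h with rfl | rfl
  exacts [bad_b D _ _ T g a, bad_a D _ _ T g a]

theorem exc (T : TX (genW γ (N6.ws 0)) M Y) {g : G} (h : g * γ 13 * g⁻¹ ∈ M) :
    Y = ⊤ ∨ (∃ E ≤ Y, Nat.card E = 9 ∧ ∀ e ∈ E, e ∈ M → e = 1) ∧ ¬ 9 ∣ Nat.card (centralizer (M : Set G)) := by
  have := nrm D
  have T' := T.cj g
  have k : Out γ (M.comap (conj g).toMonoidHom) [12, 11] [] → Y = ⊤ := fun o => o.elim
    (fun ⟨_, p, u, a⟩ => bad D T p (g := g * u) (by simpa [mul_assoc] using a)) fun ⟨_, k, _⟩ => nomatch k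
  rcases st_c D T' h with o | ⟨_, p, a⟩
  · exact Or.inl (k (Or.inl o))
  obtain ⟨b, c⟩ := st_e D T' h (List.mem_singleton.1 p ▸ a)
  refine (em _).imp_right fun n => ⟨⟨_, map_le_iff_le_comap.2 b, (card_map_of_injective (conj g).injective).trans
    ((D.card 3).trans (by decide +kernel)), ?_⟩, fun d => ?_⟩
  · rintro _ ⟨x, p, rfl⟩ q
    rw [(c x p q).resolve_right (mt k n), map_one]
  · have := d.trans ((card_map_of_injective (f := (conj g⁻¹).toMonoidHom) (conj g⁻¹).injective).symm.dvd.trans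
      (card_dvd_of_le (K := genW γ (N6.ws 2)) (map_le_iff_le_comap.2 fun x p => cen_c D (g⁻¹ * x * g⁻¹⁻¹) ((conj g).injective (by simpa [mul_assoc] using (p _ h).symm)))))
    rw [D.card] at this
    exact absurd this (by decide +kernel)

theorem te (T : TX (genW γ (N6.ws 0)) M Y) :
    Y = ⊤ ∨ (∃ E ≤ Y, Nat.card E = 9 ∧ ∀ e ∈ E, e ∈ M → e = 1) ∧ ¬ 9 ∣ Nat.card (centralizer (M : Set G)) := by
  have := D.fin
  have := nrm D
  obtain ⟨x, m, a, b⟩ := T.inv
  obtain ⟨k, p, g, rfl⟩ := cls D a b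
  simp only [List.mem_cons, List.not_mem_nil, or_false] at p
  rcases p with rfl | rfl | rfl | rfl
  · exact Or.inl (bad D T (by simp) m)
  · exact Or.inl (bad D T (by simp) m)
  · exact exc D T m
  obtain ⟨k, p, u, c⟩ := (st_b3 D (T.cj g) m).resolve_right fun ⟨_, k, _⟩ => nomatch k
  have c : g * u * γ k * (g * u)⁻¹ ∈ M := by simpa [mul_assoc] using c
  rcases List.mem_cons.1 ((List.perm_append_comm (l₁ := [12, 11]) (l₂ := [13])).subset p) with rfl | p
  exacts [exc D T c, Or.inl (bad D T p c)]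

theorem fx [s : IsSimpleGroup G] (h : Nat.card (MulAut G) = Nat.card G) : Fx G := by
  have := D.fin
  have z : ∀ a : G, (∀ b, a * b = b * a) → a = 1 := fun a k => mem_bot.1 (((inferInstance : (center G).Normal).eq_bot_or_eq_top.resolve_right
    fun e => D.holds (φ := .not (cmF 11 (.l 5))) (by decide +kernel) (mem_center_iff.1 (e.ge (mem_top _)) _)).le (mem_center_iff.2 fun b => (k b).symm))
  have i : Function.Injective (conj : G →* _) := (injective_iff_map_eq_one _).2 fun a k => z a fun b =>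
    mul_inv_eq_iff_eq_mul.1 (DFunLike.congr_fun k b)
  let e := MulEquiv.ofBijective conj ((Nat.bijective_iff_injective_and_card _).2 ⟨i, h.symm⟩)
  have n : ∀ α : MulAut G, ∃ a, α = conj a := fun α => ⟨e.symm α, (e.apply_symm_apply α).symm⟩
  have c : ∀ N : Subgroup (MulAut G), Nat.card (N.comap conj) = Nat.card N := fun N => Nat.card_congr (e.toEquiv.subtypeEquiv fun _ => Iff.rfl)
  refine ⟨s, z, ⟨γ 11, D.holds (φ := invF 11) (by decide +kernel)⟩, fun M Y T => ?_, fun u _ => Or.inl (n u), fun _ _ _ _ _ => n _⟩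
  have T' := T.tx (κ := .id G) i Function.injective_id (fun _ _ => rfl) (c M ▸ T.four)
  rw [map_id, MonoidHom.range_eq_top.2 Function.surjective_id, ← D.top] at T'
  refine (te D T').imp_right fun ⟨p, q⟩ => ⟨n, p, fun d => q ((c _ ▸ d).trans (card_dvd_of_le fun x a y b => i ?_))⟩
  rw [map_mul, map_mul]; exact a _ b

end Sp

theorem fx_sp {F : Type*} [Field F] [Fintype F] (hF : Fintype.card F = 2) : Fx (PSp 3 F) := by
  obtain ⟨e⟩ := N6_equiv
  let f := Mult.pspCongr (FiniteField.ringEquivOfCardEq (hF.trans Asch.TF.card.symm) : F ≃+* Mult.K2) 3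
  obtain ⟨γ, D⟩ := Md.of_equiv N6_ok (e.trans f.symm)
  have := Symp.isSimpleGroup_PSp (F := Mult.K2) (m := 3) (by decide) (by decide)
  have := f.isSimpleGroup
  have := Fact.mk Nat.prime_two
  exact Sp.fx D (by simpa using Agent.S0814.result 2 1 le_rfl hF 3 (by omega) (by omega))

end Cfsg.Lib.NC
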